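import Cfsg.Agent.H0.VM223.D
set_option maxRecDepth 100000
set_option Elab.async false
namespace H0.VM223
open H0 BN 
universe u
theorem stem {G : Type u} [Group G] [Finite G] (P : Pres G 16 H0.MM22.B) (hG : commutator G = ⊤) : StemElt G (3 ^ (0 + 1)) :=
  stemElt_of P hG R.p J c (by decide) (all_take_done (all_take_step (all_take_zero _ E) (pw_done R (pw_step R (pw_zero R ((E.drop 0).take 87)) c0))) (by decide +kernel)) (eq_of_eqW R c1)
    (ne_one_of_maps R (u := [16]) c2 (by decide)) (by decide +kernel)
end H0.VM223
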